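import Mathlib

/-! Bridge, BP2: five distinct commuting transpositions of ten points. -/

set_option autoImplicit false

namespace CfsgLib.ANX

open Equiv Equiv.Perm

theorem bp2_dj {a b c d : Fin 10} (h1 : a ≠ b) (h2 : c ≠ d)
    (h : Commute (swap a b) (swap c d) ∧ swap a b ≠ swap c d) : a ≠ c ∧ a ≠ d ∧ b ≠ c ∧ b ≠ d := by
  obtain ⟨k, n⟩ := h
  have e : swap (swap a b c) (swap a b d) = swap c d := by
    rw [swap_apply_apply, k.eq, mul_inv_cancel_right]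
  have e1 := congrArg (fun p : Perm (Fin 10) => p c) e
  have e2 := congrArg (fun p : Perm (Fin 10) => p d) e
  have n1 : ¬ (a = c ∧ b = d) := fun ⟨x, y⟩ => n (by rw [x, y])
  have n2 : ¬ (a = d ∧ b = c) := fun ⟨x, y⟩ => n (by rw [x, y, swap_comm])
  simp only [swap_apply_def] at e1 e2
  grind

theorem b_five' {m1 m2 m3 m4 m5 : Perm (Fin 10)} (h : ∀ m ∈ [m1, m2, m3, m4, m5], m.IsSwap)
    (hc : [m1, m2, m3, m4, m5].Pairwise fun a b => Commute a b ∧ a ≠ b) :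
    ∃ l : Perm (Fin 10), l * swap 8 9 * l⁻¹ = m1 ∧ l * swap 0 1 * l⁻¹ = m2 ∧ l * swap 2 3 * l⁻¹ = m3 ∧
      l * swap 4 5 * l⁻¹ = m4 ∧ l * swap 6 7 * l⁻¹ = m5 := by
  obtain ⟨a1, b1, n1, rfl⟩ := h m1 (by simp)
  obtain ⟨a2, b2, n2, rfl⟩ := h m2 (by simp)
  obtain ⟨a3, b3, n3, rfl⟩ := h m3 (by simp)
  obtain ⟨a4, b4, n4, rfl⟩ := h m4 (by simp)
  obtain ⟨a5, b5, n5, rfl⟩ := h m5 (by simp)
  simp only [List.pairwise_cons, List.mem_cons, List.not_mem_nil, or_false, forall_eq_or_imp, forall_eq] at hc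
  obtain ⟨⟨h12, h13, h14, h15⟩, ⟨h23, h24, h25⟩, ⟨h34, h35⟩, h45, -⟩ := hc
  have k12 := bp2_dj n1 n2 h12
  have k13 := bp2_dj n1 n3 h13
  have k14 := bp2_dj n1 n4 h14
  have k15 := bp2_dj n1 n5 h15
  have k23 := bp2_dj n2 n3 h23
  have k24 := bp2_dj n2 n4 h24
  have k25 := bp2_dj n2 n5 h25
  have k34 := bp2_dj n3 n4 h34
  have k35 := bp2_dj n3 n5 h35
  have k45 := bp2_dj n4 n5 h45
  have nd : [a2, b2, a3, b3, a4, b4, a5, b5, a1, b1].Nodup := by
    simp only [List.nodup_cons, List.mem_cons, List.not_mem_nil, or_false, not_or, List.nodup_nil,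
      not_false_eq_true, and_true]
    clear h h12 h13 h14 h15 h23 h24 h25 h34 h35 h45
    grind
  have inj : Function.Injective (![a2, b2, a3, b3, a4, b4, a5, b5, a1, b1] : Fin 10 → Fin 10) :=
    List.nodup_ofFn.1 (by simpa using nd)
  refine ⟨Equiv.ofBijective _ (Finite.injective_iff_bijective.1 inj), ?_, ?_, ?_, ?_, ?_⟩ <;>
    rw [← swap_apply_apply] <;> rfl

end CfsgLib.ANX
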