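import Mathlib

/-! ANX part O: a permutation of order 4 whose involutive commutators with the centraliser of its
square are trivial or equal to the square is a 4-cycle. -/

set_option autoImplicit false
set_option linter.unusedSectionVars false

namespace CfsgLib.ANX

open Equiv Equiv.Perm

variable {Ω : Type} [Fintype Ω] [DecidableEq Ω]

theorem op_cs (f : Perm Ω) {a b c d : Ω} (h : (f a = c ∧ f b = d) ∨ (f a = d ∧ f b = c)) :
    f * swap a b * f⁻¹ = swap c d := by
  rw [← swap_apply_apply]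
  rcases h with ⟨rfl, rfl⟩ | ⟨rfl, rfl⟩
  · rfl
  · exact swap_comm _ _

theorem op_sw {a b c d : Ω} (h1 : a ≠ c) (h2 : a ≠ d) (h3 : b ≠ c) (h4 : b ≠ d) :
    Commute (swap a b) (swap c d) :=
  mul_inv_eq_iff_eq_mul.1 (op_cs _ (.inl ⟨swap_apply_of_ne_of_ne h1.symm h3.symm,
    swap_apply_of_ne_of_ne h2.symm h4.symm⟩))

theorem op_c2 (f : Perm Ω) (a b c d : Ω) :
    f * (swap a b * swap c d) * f⁻¹ = swap (f a) (f b) * swap (f c) (f d) := by
  rw [swap_apply_apply, swap_apply_apply]; group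

theorem op_sq {x y : Perm Ω} (hx : x * x = 1) (hy : y * y = 1) (h : Commute x y) :
    x * y * (x * y) = 1 := by
  rw [mul_assoc, ← mul_assoc y, ← h.eq, mul_assoc, hy, mul_one, hx]

theorem op_even {a b c d : Ω} (h1 : a ≠ b) (h2 : c ≠ d) :
    swap a b * swap c d ∈ alternatingGroup Ω := by
  rw [mem_alternatingGroup, Perm.sign_mul, sign_swap h1, sign_swap h2]; rfl

theorem op_new (l : List Ω) (h : l.length < Fintype.card Ω) : ∃ y, y ∉ l := by
  obtain ⟨y, -, hy⟩ := Finset.exists_mem_notMem_of_card_lt_card (s := l.toFinset)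
    (t := Finset.univ) ((List.toFinset_card_le l).trans_lt h)
  exact ⟨y, by simpa using hy⟩

theorem op_w (p : Perm Ω) {a b c d : Ω} (h1 : a ≠ c) (h2 : a ≠ d) (h3 : b ≠ c) (h4 : b ≠ d) :
    swap a b * swap c d * p * (swap a b * swap c d)⁻¹ * p⁻¹ =
      swap a b * swap c d * (swap (p a) (p b) * swap (p c) (p d)) := by
  rw [← op_c2, inv_eq_of_mul_eq_one_right (op_sq (swap_mul_self _ _) (swap_mul_self _ _)
    (op_sw h1 h2 h3 h4))]
  group

/-- the hypothesis on `p` -/
def OH (p : Perm Ω) : Prop :=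
  ∀ x ∈ alternatingGroup Ω, Commute (p * p) x → x * p * x⁻¹ * p⁻¹ * (x * p * x⁻¹ * p⁻¹) = 1 →
    x * p * x⁻¹ * p⁻¹ = 1 ∨ x * p * x⁻¹ * p⁻¹ = p * p

theorem op_eight {p : Perm Ω} (H : OH p) {a b c d : Ω} (ab : a ≠ b) (cd : c ≠ d) (h1 : a ≠ c)
    (h2 : a ≠ d) (h3 : b ≠ c) (h4 : b ≠ d) (hc : Commute (p * p) (swap a b * swap c d))
    (k : ∀ u ∈ [a, b, c, d], ∀ v ∈ [a, b, c, d], u ≠ p v) : p (p a) = b := by
  have inj : ∀ {u v : Ω}, u ≠ v → p u ≠ p v := fun h e => h (p.injective e)
  have key : (swap a b * swap c d * (swap (p a) (p b) * swap (p c) (p d))) a = b := by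
    simp only [Perm.mul_apply]
    rw [swap_apply_of_ne_of_ne (k a (by simp) c (by simp)) (k a (by simp) d (by simp)),
      swap_apply_of_ne_of_ne (k a (by simp) a (by simp)) (k a (by simp) b (by simp)),
      swap_apply_of_ne_of_ne h1 h2, swap_apply_left]
  have := H _ (op_even ab cd) hc (by
    rw [op_w p h1 h2 h3 h4]
    refine op_sq (op_sq (swap_mul_self _ _) (swap_mul_self _ _) (op_sw h1 h2 h3 h4))
      (op_sq (swap_mul_self _ _) (swap_mul_self _ _) (op_sw (inj h1) (inj h2) (inj h3) (inj h4))) ?_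
    refine Commute.mul_left (Commute.mul_right ?_ ?_) (Commute.mul_right ?_ ?_) <;>
      refine op_sw ?_ ?_ ?_ ?_ <;> exact k _ (by simp) _ (by simp))
  rw [op_w p h1 h2 h3 h4] at this
  rcases this with e | e
  · rw [e] at key; exact absurd key ab
  · rw [e] at key; exact key

theorem op_main (h9 : 9 ≤ Fintype.card Ω) {p : Perm Ω} (p4 : p * p * (p * p) = 1) (p2 : p * p ≠ 1)
    (H : OH p) : sign p = -1 ∧ ∃ x ∈ alternatingGroup Ω, Commute (p * p) x ∧
      x * p * x⁻¹ * p⁻¹ * (x * p * x⁻¹ * p⁻¹) = 1 ∧ x * p * x⁻¹ * p⁻¹ ≠ 1 := by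
  have q4 : ∀ u, p (p (p (p u))) = u := fun u => congrArg (fun f : Perm Ω => f u) p4
  obtain ⟨a, ha⟩ : ∃ a, p (p a) ≠ a := by
    by_contra h
    push Not at h
    exact p2 (Equiv.ext h)
  have inj : ∀ {u v : Ω}, u ≠ v → p u ≠ p v := fun h e => h (p.injective e)
  have orb : ∀ u, p (p u) ≠ u → u ≠ p u ∧ u ≠ p (p (p u)) := fun u hu =>
    ⟨fun e => hu (by rw [← e, ← e]), fun e => hu (by
      have := congrArg p e
      rw [q4] at this
      rw [this, this])⟩
  obtain ⟨b, hb⟩ : ∃ b, p a = b := ⟨_, rfl⟩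
  obtain ⟨c, hc⟩ : ∃ c, p b = c := ⟨_, rfl⟩
  obtain ⟨d, hd⟩ : ∃ d, p c = d := ⟨_, rfl⟩
  have hda : p d = a := by rw [← hd, ← hc, ← hb, q4]
  obtain ⟨ab, ad⟩ := orb a ha
  rw [hb, hc] at ha
  rw [hb] at ab
  rw [hb, hc, hd] at ad
  have ac : a ≠ c := ha.symm
  have bc : b ≠ c := by rw [← hb, ← hc]; exact inj ab
  have bd : b ≠ d := by rw [← hb, ← hd]; exact inj ac
  have cd : c ≠ d := by rw [← hc, ← hd]; exact inj bc
  have out : ∀ u, u ∉ [a, b, c, d] → p u ∉ [a, b, c, d] := fun u hu h => hu (by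
    simp only [List.mem_cons, List.not_mem_nil, or_false] at h ⊢
    rcases h with e | e | e | e
    · exact .inr (.inr (.inr (p.injective (e.trans hda.symm))))
    · exact .inl (p.injective (e.trans hb.symm))
    · exact .inr (.inl (p.injective (e.trans hc.symm)))
    · exact .inr (.inr (.inl (p.injective (e.trans hd.symm)))))
  have ea : (p * p) a = c := by rw [Perm.mul_apply, hb, hc]
  have ec : (p * p) c = a := by rw [Perm.mul_apply, hd, hda]
  -- no second 4-cycle
  have sq : ∀ u, u ∉ [a, b, c, d] → p (p u) = u := fun u hu => by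
    by_contra h
    obtain ⟨k1, k2⟩ := orb u h
    have o1 := out _ hu
    have o2 := out _ o1
    have o3 := out _ o2
    have k3 := inj k1
    have k4 := inj k3
    simp only [List.mem_cons, List.not_mem_nil, or_false, not_or] at hu o1 o2 o3
    have := op_eight H (a := a) (b := u) (c := c) (d := p (p u)) (Ne.symm hu.1) (Ne.symm o2.2.2.1)
      ac (Ne.symm o2.1) hu.2.2.1 (Ne.symm h) (mul_inv_eq_iff_eq_mul.1 (by
        rw [op_c2, ea, ec, Perm.mul_apply, Perm.mul_apply, q4]
        exact (op_sw ac.symm (Ne.symm hu.2.2.1) o2.1 h).eq)) (by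
        simp only [List.mem_cons, List.not_mem_nil, or_false, forall_eq_or_imp, forall_eq, hb, hd]
        refine ⟨⟨ab, (Ne.symm o1.1), ad, (Ne.symm o3.1)⟩, ⟨hu.2.1, k1, hu.2.2.2, k2⟩,
          ⟨bc.symm, (Ne.symm o1.2.2.1), cd, (Ne.symm o3.2.2.1)⟩, o2.2.1, k3.symm, o2.2.2.2, k4⟩)
    rw [hb, hc] at this
    exact hu.2.2.1 this.symm
  -- no transposition
  have fix : ∀ u, u ∉ [a, b, c, d] → p u = u := fun u hu => by
    by_contra h
    have one : ∀ y, y ∉ [a, b, c, d] → y ≠ u → y ≠ p u → p y = y := fun y hy yu yv => by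
      by_contra hy'
      have o1 := out _ hu
      have o2 := out _ hy
      have s1 := sq _ hu
      have s2 := sq _ hy
      have k1 : u ≠ p y := fun e => yv (by rw [e, s2])
      simp only [List.mem_cons, List.not_mem_nil, or_false, not_or] at hu hy o1 o2
      have := op_eight H (a := u) (b := y) (c := a) (d := c) yu.symm ac hu.1 hu.2.2.1 hy.1 hy.2.2.1
        (mul_inv_eq_iff_eq_mul.1 (by
          rw [op_c2, ea, ec, Perm.mul_apply, Perm.mul_apply, s1, s2, swap_comm c a])) (by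
        simp only [List.mem_cons, List.not_mem_nil, or_false, forall_eq_or_imp, forall_eq, hb, hd]
        refine ⟨⟨Ne.symm h, k1, hu.2.1, hu.2.2.2⟩, ⟨yv, Ne.symm hy', hy.2.1, hy.2.2.2⟩,
          ⟨(Ne.symm o1.1), (Ne.symm o2.1), ab, ad⟩, (Ne.symm o1.2.2.1), (Ne.symm o2.2.2.1), bc.symm, cd⟩)
      exact yu (this.symm.trans s1)
    obtain ⟨y, hy⟩ := op_new [u, p u, a, b, c, d] (by simp; omega)
    obtain ⟨z, hz⟩ := op_new [y, u, p u, a, b, c, d] (by simp; omega)
    rw [List.mem_cons, List.mem_cons, not_or, not_or] at hy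
    rw [List.mem_cons, List.mem_cons, List.mem_cons, not_or, not_or, not_or] at hz
    have py := one y hy.2.2 hy.1 hy.2.1
    have pz := one z hz.2.2.2 hz.2.1 hz.2.2.1
    have s1 := sq _ hu
    obtain ⟨v, hv⟩ : ∃ v, p u = v := ⟨_, rfl⟩
    rw [hv] at s1 h hy hz
    have uv : u ≠ v := Ne.symm h
    have e1 := op_w p (a := u) (b := y) (c := v) (d := z) uv (Ne.symm hz.2.1) hy.2.1 (Ne.symm hz.1)
    rw [hv, py, s1, pz] at e1
    have key : (swap u y * swap v z * (swap v y * swap u z)) u = v := by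
      simp only [Perm.mul_apply]
      rw [swap_apply_left, swap_apply_of_ne_of_ne hz.2.2.1 hz.1, swap_apply_right,
        swap_apply_of_ne_of_ne h (Ne.symm hy.2.1)]
    have := H _ (op_even (Ne.symm hy.1) (Ne.symm hz.2.2.1)) (mul_inv_eq_iff_eq_mul.1 (by
      rw [op_c2]; simp only [Perm.mul_apply, hv, py, s1, pz])) (by
      rw [e1]
      refine op_sq (op_sq (swap_mul_self _ _) (swap_mul_self _ _)
        (op_sw uv (Ne.symm hz.2.1) hy.2.1 (Ne.symm hz.1))) (op_sq (swap_mul_self _ _) (swap_mul_self _ _)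
        (op_sw h (Ne.symm hz.2.2.1) hy.1 (Ne.symm hz.1))) (mul_inv_eq_iff_eq_mul.1 ?_)
      rw [op_c2]
      simp only [Perm.mul_apply]
      rw [swap_apply_left, swap_apply_right, swap_apply_of_ne_of_ne hz.2.1 hz.1,
        swap_apply_of_ne_of_ne hy.2.1 (Ne.symm hz.1), swap_apply_right,
        swap_apply_of_ne_of_ne uv (Ne.symm hz.2.1), swap_apply_left,
        swap_apply_of_ne_of_ne h (Ne.symm hy.2.1), swap_comm z u, swap_comm y v]
      exact (op_sw uv (Ne.symm hy.1) hz.2.2.1 hz.1).eq)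
    rw [e1] at this
    rcases this with e | e
    · rw [e] at key; exact uv key
    · rw [e, Perm.mul_apply, hv, s1] at key; exact uv key
  refine ⟨?_, ?_⟩
  · have : p = swap a b * swap b c * swap c d := by
      ext u
      simp only [Perm.mul_apply]
      by_cases hu : u ∈ [a, b, c, d]
      · simp only [List.mem_cons, List.not_mem_nil, or_false] at hu
        rcases hu with rfl | rfl | rfl | rfl
        · rw [swap_apply_of_ne_of_ne ac ad, swap_apply_of_ne_of_ne ab ac, swap_apply_left, hb]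
        · rw [swap_apply_of_ne_of_ne bc bd, swap_apply_left, swap_apply_of_ne_of_ne ac.symm bc.symm, hc]
        · rw [swap_apply_left, swap_apply_of_ne_of_ne bd.symm cd.symm,
            swap_apply_of_ne_of_ne ad.symm bd.symm, hd]
        · rw [swap_apply_right, swap_apply_right, swap_apply_right, hda]
      · rw [fix u hu]
        simp only [List.mem_cons, List.not_mem_nil, or_false, not_or] at hu
        rw [swap_apply_of_ne_of_ne hu.2.2.1 hu.2.2.2, swap_apply_of_ne_of_ne hu.2.1 hu.2.2.1,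
          swap_apply_of_ne_of_ne hu.1 hu.2.1]
    rw [this, Perm.sign_mul, Perm.sign_mul, sign_swap ab, sign_swap bc, sign_swap cd]; rfl
  · obtain ⟨u, hu⟩ := op_new [a, b, c, d] (by simp; omega)
    obtain ⟨v, hv⟩ := op_new [u, a, b, c, d] (by simp; omega)
    rw [List.mem_cons, not_or] at hv
    have pu := fix u hu
    have pv := fix v hv.2
    obtain ⟨vu, hv⟩ := hv
    simp only [List.mem_cons, List.not_mem_nil, or_false, not_or] at hu hv
    have e1 := op_w p (a := u) (b := v) (c := a) (d := c) hu.1 hu.2.2.1 hv.1 hv.2.2.1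
    have e2 : swap u v * swap a c * (swap u v * swap b d) = swap a c * swap b d := by
      rw [(op_sw hu.1 hu.2.2.1 hv.1 hv.2.2.1).eq, mul_assoc, ← mul_assoc (swap u v), swap_mul_self,
        one_mul]
    rw [pu, pv, hb, hd, e2] at e1
    refine ⟨_, op_even (Ne.symm vu) ac, mul_inv_eq_iff_eq_mul.1 ?_, ?_, ?_⟩
    · rw [op_c2, ea, ec, Perm.mul_apply, Perm.mul_apply, pu, pu, pv, pv, swap_comm c a]
    · rw [e1]
      exact op_sq (swap_mul_self _ _) (swap_mul_self _ _) (op_sw ab ad bc.symm cd)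
    · rw [e1]
      intro e
      have := congrArg (fun f : Perm Ω => f a) e
      simp only [Perm.mul_apply, Perm.one_apply] at this
      rw [swap_apply_of_ne_of_ne ab ad, swap_apply_left] at this
      exact ac this.symm

end CfsgLib.ANX
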