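import Mathlib

/-! ANX: pure permutation lemmas for the weight five case. -/

set_option autoImplicit false
set_option linter.unusedSectionVars false

namespace CfsgLib.ANX

open Equiv Equiv.Perm

variable {Ω : Type} [Fintype Ω] [DecidableEq Ω]

/-- an invariant set without fixed points has order divisible by `p` -/
theorem u5p_inv {p : ℕ} (hp : p.Prime) {γ : Perm Ω} (h : γ ^ p = 1) {S : Finset Ω}
    (h1 : ∀ x ∈ S, γ x ∈ S) (h2 : ∀ x ∈ S, γ x ≠ x) : p ∣ S.card := by
  haveI : Fact p.Prime := ⟨hp⟩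
  by_contra c
  have k : ∀ x, γ x ∈ S ↔ x ∈ S := fun x =>
    ⟨fun hx => by simpa using perm_symm_on_of_perm_on_finset h1 hx, h1 x⟩
  obtain ⟨a, ha⟩ := exists_fixed_point_of_prime (p := p) (n := 1) (α := {x // x ∈ S})
    (by simpa using c) (σ := γ.subtypePerm k) (by
      rw [pow_one, subtypePerm_pow]
      ext x
      simp [h])
  exact h2 a a.2 (congrArg Subtype.val ha)

theorem u5p_dvd {p : ℕ} (hp : p.Prime) {γ : Perm Ω} (h : γ ^ p = 1) : p ∣ γ.support.card :=
  u5p_inv hp h (fun _ => apply_mem_support.2) fun _ => mem_support.1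

theorem u5p_fix {γ ζ : Perm Ω} (h : Commute γ ζ) (x : Ω) : γ (ζ x) = ζ x ↔ γ x = x := by
  rw [← Perm.mul_apply, h.eq, Perm.mul_apply, ζ.injective.eq_iff]

theorem u5p_disj {γ ζ : Perm Ω} (h : γ ^ 5 = 1) (hc : Commute γ ζ) (hζ : ζ * ζ = 1)
    (hs : γ.support.card < 10) : Perm.Disjoint γ ζ := by
  have d := u5p_dvd (by norm_num) h
  have d1 : 5 ∣ (γ.support ∩ ζ.support).card := u5p_inv (by norm_num) h
    (fun x hx => by
      rw [Finset.mem_inter, mem_support, mem_support] at hx ⊢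
      exact ⟨fun e => hx.1 (γ.injective e), fun e => hx.2 ((u5p_fix hc.symm x).1 e)⟩)
    fun x hx => mem_support.1 (Finset.mem_inter.1 hx).1
  have d2 : 2 ∣ (γ.support ∩ ζ.support).card := u5p_inv (by norm_num) (by rw [pow_two, hζ])
    (fun x hx => by
      rw [Finset.mem_inter, mem_support, mem_support] at hx ⊢
      exact ⟨fun e => hx.1 ((u5p_fix hc x).1 e), fun e => hx.2 (ζ.injective e)⟩)
    fun x hx => mem_support.1 (Finset.mem_inter.1 hx).2
  have := Finset.card_le_card (Finset.inter_subset_left (s₁ := γ.support) (s₂ := ζ.support))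
  rw [disjoint_iff_disjoint_support, Finset.disjoint_iff_inter_eq_empty, ← Finset.card_eq_zero]
  omega

/-- an involution commuting with a 5-cycle (or `1`) lives off its support -/
theorem u5p_card {γ ζ : Perm Ω} (h : γ ^ 5 = 1) (hc : Commute γ ζ) (hζ : ζ * ζ = 1)
    (hs : γ.support.card < 10) : γ.support.card + ζ.support.card ≤ Fintype.card Ω := by
  rw [← Finset.card_union_of_disjoint (disjoint_iff_disjoint_support.1 (u5p_disj h hc hζ hs))]
  exact Finset.card_le_univ _

/-- `ρ ^ q = 1` commuting with `γ` which has fewer than `q` fixed points -/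
theorem u5p_odd {q : ℕ} (hq : q.Prime) (h5 : q ≠ 5) {γ ρ : Perm Ω} (h : γ ^ 5 = 1) (hρ : ρ ^ q = 1)
    (hc : Commute γ ρ) (hs : γ.supportᶜ.card < q) (hn : Fintype.card Ω < 5 * q) : ρ = 1 := by
  have d1 : q ∣ (γ.supportᶜ ∩ ρ.support).card := u5p_inv hq hρ
    (fun x hx => by
      rw [Finset.mem_inter, Finset.mem_compl, notMem_support, mem_support] at hx ⊢
      exact ⟨(u5p_fix hc x).2 hx.1, fun e => hx.2 (ρ.injective e)⟩)
    fun x hx => mem_support.1 (Finset.mem_inter.1 hx).2
  have l := Finset.card_le_card (Finset.inter_subset_left (s₁ := γ.supportᶜ) (s₂ := ρ.support))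
  have e := Finset.card_eq_zero.1 (Nat.eq_zero_of_dvd_of_lt d1 (by omega))
  have d2 : 5 ∣ ρ.support.card := u5p_inv (by norm_num) h
    (fun x hx => by
      rw [mem_support] at hx ⊢
      exact fun e => hx ((u5p_fix hc.symm x).1 e))
    fun x hx c => by
      have : x ∈ γ.supportᶜ ∩ ρ.support :=
        Finset.mem_inter.2 ⟨Finset.mem_compl.2 (notMem_support.2 c), hx⟩
      rw [e] at this
      exact Finset.notMem_empty _ this
  have d3 := ((Nat.coprime_primes (by norm_num) hq).2 h5.symm).mul_dvd_of_dvd_of_dvd d2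
    (u5p_dvd hq hρ)
  have := Finset.card_le_univ ρ.support
  rw [← support_eq_empty_iff, ← Finset.card_eq_zero]
  exact Nat.eq_zero_of_dvd_of_lt d3 (by omega)

theorem u5p_three {γ ρ : Perm Ω} (h : γ ^ 5 = 1) (hρ : ρ ^ 3 = 1) (hc : Commute γ ρ)
    (hs : γ.supportᶜ.card ≤ 2) (hn : Fintype.card Ω < 15) : ρ = 1 :=
  u5p_odd (by norm_num) (by norm_num) h hρ hc (by omega) hn

theorem u5p_13 {γ x : Perm Ω} (h : γ ^ 5 = 1) (hx : x * x = 1) (h8 : x.support.card = 8)
    (hs : γ.support ⊆ x.support) (hc : ∀ i : ℕ, Commute x (γ ^ i * x * (γ ^ i)⁻¹))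
    (hp : x * (γ * x * γ⁻¹) * (γ ^ 2 * x * (γ ^ 2)⁻¹) * (γ ^ 3 * x * (γ ^ 3)⁻¹) *
      (γ ^ 4 * x * (γ ^ 4)⁻¹) = 1) : γ * x * γ⁻¹ = x := by
  by_contra c
  have g1 : γ ≠ 1 := by rintro rfl; simp at c
  have d := u5p_dvd (by norm_num) h
  have l := Finset.card_le_card hs
  have s5 : γ.support.card = 5 := by
    have : γ.support.card ≠ 0 := by rwa [Ne, Finset.card_eq_zero, support_eq_empty_iff]
    omega
  haveI : Fact (Nat.Prime 5) := ⟨by norm_num⟩
  have o5 : orderOf γ = 5 := orderOf_eq_prime h g1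
  have cy : γ.IsCycle := isCycle_of_prime_order (by rw [o5]; norm_num) (by rw [o5]; omega)
  obtain ⟨p, hp1, hp2⟩ : ∃ p ∈ x.support \ γ.support, x p ∉ x.support \ γ.support := by
    by_contra k
    push Not at k
    have := u5p_inv Nat.prime_two (by rw [pow_two, hx]) k
      fun z hz => mem_support.1 (Finset.mem_sdiff.1 hz).1
    rw [Finset.card_sdiff_of_subset hs] at this
    omega
  rw [Finset.mem_sdiff] at hp1 hp2
  have gp : γ p = p := notMem_support.1 hp1.2
  have gw : γ (x p) ≠ x p := fun e => hp2 ⟨apply_mem_support.2 hp1.1, notMem_support.2 e⟩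
  let X : ℕ → Perm Ω := fun i => γ ^ i * x * (γ ^ i)⁻¹
  have Xp : ∀ i, X i p = (γ ^ i) (x p) := fun i => by
    have : (γ ^ i)⁻¹ p = p := by
      rw [Perm.inv_eq_iff_eq, pow_apply_eq_self_of_apply_eq_self gp]
    simp only [X, Perm.mul_apply, this]
  have X2 : ∀ i z, X i (X i z) = z := fun i z => by
    have : X i * X i = 1 := by
      simp only [X]; rw [conj_mul, hx]; simp
    rw [← Perm.mul_apply, this]; rfl
  have Xc' : ∀ i k, Commute (X i) (X (i + k)) := fun i k => by
    have := (hc k).conj (γ ^ i)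
    simpa only [X, pow_add, mul_inv_rev, mul_assoc] using this
  have Xc : ∀ i k z, X i (X k z) = X k (X i z) := fun i k z => by
    rw [← Perm.mul_apply, ← Perm.mul_apply]
    rcases le_total i k with e | e <;> obtain ⟨m, rfl⟩ := Nat.exists_eq_add_of_le e
    · rw [(Xc' i m).eq]
    · rw [(Xc' k m).eq]
  have ne : ∀ i k, 0 < k → k < 5 → X i p ≠ X (i + k) p := fun i k k0 k5 e => by
    rw [Xp, Xp, pow_add, Perm.mul_apply, (γ ^ i).injective.eq_iff] at e
    have := pow_apply_eq_self_of_apply_eq_self e.symm (k ^ 3)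
    rw [← pow_mul, ← pow_mod_orderOf, o5,
      show k * k ^ 3 % 5 = 1 by interval_cases k <;> rfl, pow_one] at this
    exact gw this
  have np : ∀ i, X i p ≠ p := fun i e => by
    rw [Xp] at e
    have := pow_apply_mem_support (n := i).2 (mem_support.2 gw)
    rw [e] at this
    exact hp1.2 this
  have pr : X 0 (X 1 (X 2 (X 3 (X 4 p)))) = p := by
    have := DFunLike.congr_fun hp p
    simpa only [X, Perm.mul_apply, pow_zero, pow_one, inv_one, Perm.one_apply] using this
  by_cases a : γ (X 0 (X 1 p)) = X 0 (X 1 p)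
  · have : γ (X 0 (X 1 p)) = X 1 (X 2 p) := by
      rw [Xp 1, Xp 2]
      simp [X, pow_two]
    rw [this, Xc 0 1, (X 1).injective.eq_iff] at a
    exact ne 0 2 (by omega) (by omega) a.symm
  obtain ⟨k, hk⟩ := cy.exists_pow_eq gw a
  rw [← pow_mod_orderOf, o5, ← Xp] at hk
  have k5 := Nat.mod_lt k (show 0 < 5 by omega)
  generalize k % 5 = m at hk k5
  have z : X 0 (X 1 (X m p)) = X 0 (X 1 (X 0 (X 1 p))) := by rw [hk]
  rw [Xc 1 0, X2, X2] at z
  have inj : ∀ {u}, X 0 (X 1 (X m u)) = p → u = p := fun e =>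
    (X m).injective ((X 1).injective ((X 0).injective (e.trans z.symm)))
  interval_cases m
  · exact np 1 ((X 0).injective hk).symm
  · rw [Xc 0 1] at hk; exact np 0 ((X 1).injective hk).symm
  · have := congrArg (X 3) (inj pr)
    rw [X2] at this
    exact ne 3 1 (by omega) (by omega) this.symm
  · rw [Xc 2 3] at pr
    have := congrArg (X 2) (inj pr)
    rw [X2] at this
    exact ne 2 2 (by omega) (by omega) this.symm
  · rw [Xc 3 4, Xc 2 4] at pr
    have := congrArg (X 2) (inj pr)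
    rw [X2] at this
    exact ne 2 1 (by omega) (by omega) this.symm

theorem u5p_11 (h11 : Fintype.card Ω = 11) {γ ζ x : Perm Ω} (h : γ ^ 5 = 1) (hζ : ζ * ζ = 1)
    (h10 : ζ.support.card = 10) (c1 : Commute γ ζ) (h8 : x.support.card = 8) (c2 : Commute x ζ)
    (hc : ∀ i : ℕ, Commute x (γ ^ i * x * (γ ^ i)⁻¹)) (hn : γ * x * γ⁻¹ ≠ x) :
    (x * ζ).IsSwap := by
  classical
  have zz : ∀ z, ζ (ζ z) = z := fun z => by rw [← Perm.mul_apply, hζ]; rfl
  have g1 : γ ≠ 1 := by rintro rfl; simp at hn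
  have d := u5p_dvd (by norm_num) h
  have l := Finset.card_le_univ γ.support
  have s0 : γ.support.card ≠ 0 := by rwa [Ne, Finset.card_eq_zero, support_eq_empty_iff]
  have s10 : γ.support.card = 10 := by
    by_contra c
    have := u5p_card h c1 hζ (by omega)
    omega
  obtain ⟨o, ho⟩ := Finset.card_eq_one.1 (show ζ.supportᶜ.card = 1 by rw [Finset.card_compl]; omega)
  have fo : ∀ z, ζ z = z ↔ z = o := fun z => by
    rw [← notMem_support, ← Finset.mem_compl, ho, Finset.mem_singleton]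
  have xo : x o = o := (fo _).1 ((u5p_fix c2.symm o).2 ((fo o).2 rfl))
  have go : γ o = o := (fo _).1 ((u5p_fix c1.symm o).2 ((fo o).2 rfl))
  have gs : ∀ z, ζ z ≠ z → γ z ≠ z := fun z hz e => by
    have : ({z, o} : Finset Ω) ⊆ γ.supportᶜ := by
      intro w hw
      rw [Finset.mem_compl, notMem_support]
      rcases Finset.mem_insert.1 hw with rfl | hw
      · exact e
      · rw [Finset.mem_singleton.1 hw]; exact go
    have := Finset.card_le_card this
    rw [Finset.card_pair (fun e => hz ((fo z).2 e)), Finset.card_compl] at this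
    omega
  have x3 : x.supportᶜ.card = 3 := by rw [Finset.card_compl]; omega
  have hF : ∀ p, x p = p → ζ p ≠ p → ∀ z, x z = z → ζ z ≠ z → z = p ∨ z = ζ p := by
    intro p a1 a2 z b1 b2
    have e : ({o, p, ζ p} : Finset Ω) = x.supportᶜ := by
      refine Finset.eq_of_subset_of_card_le (fun w hw => ?_) ?_
      · rw [Finset.mem_compl, notMem_support]
        simp only [Finset.mem_insert, Finset.mem_singleton] at hw
        rcases hw with rfl | rfl | rfl
        exacts [xo, a1, (u5p_fix c2 p).2 a1]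
      · rw [x3, Finset.card_eq_three.2 ⟨o, p, ζ p, fun e => a2 ((fo p).2 e.symm),
          fun e => a2 (ζ.injective ((fo _).2 e.symm)), a2.symm, rfl⟩]
    have : z ∈ ({o, p, ζ p} : Finset Ω) := by rw [e, Finset.mem_compl, notMem_support]; exact b1
    simp only [Finset.mem_insert, Finset.mem_singleton] at this
    exact this.resolve_left fun e => b2 ((fo z).2 e)
  obtain ⟨p, a1, a2⟩ := Finset.exists_mem_notMem_of_card_lt_card
    (show ζ.supportᶜ.card < x.supportᶜ.card by rw [ho, x3]; simp)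
  rw [Finset.mem_compl, notMem_support] at a1 a2
  let O : Finset Ω := Finset.univ.filter fun z => ζ z ≠ z ∧ ∃ i : ℕ, x ((γ ^ i)⁻¹ z) = (γ ^ i)⁻¹ z
  have mO : ∀ z, z ∈ O ↔ ζ z ≠ z ∧ ∃ i : ℕ, x ((γ ^ i)⁻¹ z) = (γ ^ i)⁻¹ z := fun z => by simp [O]
  have d1 : 5 ∣ O.card := u5p_inv (by norm_num) h
    (fun z hz => by
      obtain ⟨b, i, hi⟩ := (mO z).1 hz
      refine (mO _).2 ⟨fun e => b ((u5p_fix c1.symm z).1 e), i + 1, ?_⟩
      simpa [pow_succ'] using hi)
    fun z hz => gs z ((mO z).1 hz).1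
  have d2 : 2 ∣ O.card := u5p_inv (by norm_num) (by rw [pow_two, hζ])
    (fun z hz => by
      obtain ⟨b, i, hi⟩ := (mO z).1 hz
      refine (mO _).2 ⟨fun e => b (ζ.injective e), i, ?_⟩
      rw [← Perm.mul_apply _ ζ, (c1.pow_left i).inv_left.eq, Perm.mul_apply]
      exact (u5p_fix c2 _).2 hi)
    fun z hz => ((mO z).1 hz).1
  have sO : O ⊆ ζ.support := fun z hz => mem_support.2 ((mO z).1 hz).1
  have eO : O = ζ.support := by
    refine Finset.eq_of_subset_of_card_le sO ?_
    have := Finset.card_le_card sO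
    have : O.card ≠ 0 := Finset.card_ne_zero.2 ⟨p, (mO p).2 ⟨a2, 0, by simpa using a1⟩⟩
    omega
  have key : ∀ z, x z ≠ z → x z = ζ z := by
    intro z hz
    have b : ζ z ≠ z := fun e => hz (by rw [(fo z).1 e]; exact xo)
    obtain ⟨-, i, hi⟩ := (mO z).1 (eO ▸ mem_support.2 b)
    have cz := (c1.pow_left i).inv_left
    have f1 : (γ ^ i * x * (γ ^ i)⁻¹) z = z := by
      rw [Perm.mul_apply, Perm.mul_apply, hi]; simp
    have f2 := (u5p_fix (hc i).symm z).2 f1
    rw [Perm.mul_apply, Perm.mul_apply, ← Perm.eq_inv_iff_eq] at f2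
    rcases hF _ hi (fun e => b ((u5p_fix cz.symm z).1 e)) _ f2
      (fun e => b ((u5p_fix c2.symm z).1 ((u5p_fix cz.symm _).1 e))) with e | e
    · exact absurd ((γ ^ i)⁻¹.injective e) hz
    · rw [← Perm.mul_apply ζ, ← cz.eq, Perm.mul_apply] at e
      exact (γ ^ i)⁻¹.injective e
  rw [← card_support_eq_two, ← Finset.card_pair (Ne.symm a2)]
  congr 1
  ext z
  rw [mem_support, Perm.mul_apply, Finset.mem_insert, Finset.mem_singleton]
  constructor
  · intro e
    have b : x z = z := by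
      by_contra c
      exact e (by rw [key _ fun k => c ((u5p_fix c2 z).1 k), zz])
    exact hF p a1 a2 z b fun k => e (by rw [k, b])
  · rintro (rfl | rfl)
    · rw [(u5p_fix c2 z).2 a1]; exact a2
    · rw [zz, a1]; exact Ne.symm a2

end CfsgLib.ANX
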