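import Cfsg.Agent.Lib.ANX.U5P

/-! ANX: the ten point version of `u5p_11`. -/

set_option autoImplicit false
set_option linter.unusedSectionVars false

namespace CfsgLib.ANX

open Equiv Equiv.Perm

variable {Ω : Type} [Fintype Ω] [DecidableEq Ω]

/-- `x` agrees with `ζ` off its two fixed points -/
theorem u5q_key (h10 : Fintype.card Ω = 10) {γ ζ x : Perm Ω} (h : γ ^ 5 = 1) (hζ : ζ * ζ = 1)
    (hf : ζ.support.card = 10) (c1 : Commute γ ζ) (h8 : x.support.card = 8) (c2 : Commute x ζ)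
    (hc : ∀ i : ℕ, Commute x (γ ^ i * x * (γ ^ i)⁻¹)) (hn : γ * x * γ⁻¹ ≠ x) :
    ∃ p, x p = p ∧ ζ p ≠ p ∧ x * ζ = swap p (ζ p) := by
  classical
  have zz : ∀ z, ζ (ζ z) = z := fun z => by rw [← Perm.mul_apply, hζ]; rfl
  have g1 : γ ≠ 1 := by rintro rfl; simp at hn
  have l := Finset.card_le_univ γ.support
  have s0 : γ.support.card ≠ 0 := by rwa [Ne, Finset.card_eq_zero, support_eq_empty_iff]
  have s10 : γ.support.card = 10 := by
    by_contra c
    have := u5p_card h c1 hζ (by omega)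
    omega
  have gs : ∀ z, γ z ≠ z := fun z => mem_support.1
    (Finset.eq_univ_of_card _ (s10.trans h10.symm) ▸ Finset.mem_univ z)
  have zs : ∀ z, ζ z ≠ z := fun z => mem_support.1
    (Finset.eq_univ_of_card _ (hf.trans h10.symm) ▸ Finset.mem_univ z)
  have x2 : x.supportᶜ.card = 2 := by rw [Finset.card_compl]; omega
  have hF : ∀ p, x p = p → ∀ z, x z = z → z = p ∨ z = ζ p := by
    intro p a1 z b1
    have e : ({p, ζ p} : Finset Ω) = x.supportᶜ := by
      refine Finset.eq_of_subset_of_card_le (fun w hw => ?_) ?_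
      · rw [Finset.mem_compl, notMem_support]
        simp only [Finset.mem_insert, Finset.mem_singleton] at hw
        rcases hw with rfl | rfl
        exacts [a1, (u5p_fix c2 p).2 a1]
      · rw [x2, Finset.card_pair (zs p).symm]
    have : z ∈ ({p, ζ p} : Finset Ω) := by rw [e, Finset.mem_compl, notMem_support]; exact b1
    simpa only [Finset.mem_insert, Finset.mem_singleton] using this
  obtain ⟨p, a1⟩ := Finset.card_pos.1 (show 0 < x.supportᶜ.card by omega)
  rw [Finset.mem_compl, notMem_support] at a1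
  let O : Finset Ω := Finset.univ.filter fun z => ∃ i : ℕ, x ((γ ^ i)⁻¹ z) = (γ ^ i)⁻¹ z
  have mO : ∀ z, z ∈ O ↔ ∃ i : ℕ, x ((γ ^ i)⁻¹ z) = (γ ^ i)⁻¹ z := fun z => by simp [O]
  have d1 : 5 ∣ O.card := u5p_inv (by norm_num) h
    (fun z hz => by
      obtain ⟨i, hi⟩ := (mO z).1 hz
      refine (mO _).2 ⟨i + 1, ?_⟩
      simpa [pow_succ'] using hi)
    fun z _ => gs z
  have d2 : 2 ∣ O.card := u5p_inv (by norm_num) (by rw [pow_two, hζ])
    (fun z hz => by
      obtain ⟨i, hi⟩ := (mO z).1 hz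
      refine (mO _).2 ⟨i, ?_⟩
      rw [← Perm.mul_apply _ ζ, (c1.pow_left i).inv_left.eq, Perm.mul_apply]
      exact (u5p_fix c2 _).2 hi)
    fun z _ => zs z
  have eO : O = Finset.univ := by
    refine Finset.eq_univ_of_card _ ?_
    have := Finset.card_le_univ O
    have : O.card ≠ 0 := Finset.card_ne_zero.2 ⟨p, (mO p).2 ⟨0, by simpa using a1⟩⟩
    omega
  have key : ∀ z, x z ≠ z → x z = ζ z := by
    intro z hz
    obtain ⟨i, hi⟩ := (mO z).1 (eO ▸ Finset.mem_univ z)
    have cz := (c1.pow_left i).inv_left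
    have f1 : (γ ^ i * x * (γ ^ i)⁻¹) z = z := by
      rw [Perm.mul_apply, Perm.mul_apply, hi]; simp
    have f2 := (u5p_fix (hc i).symm z).2 f1
    rw [Perm.mul_apply, Perm.mul_apply, ← Perm.eq_inv_iff_eq] at f2
    rcases hF _ hi _ f2 with e | e
    · exact absurd ((γ ^ i)⁻¹.injective e) hz
    · rw [← Perm.mul_apply ζ, ← cz.eq, Perm.mul_apply] at e
      exact (γ ^ i)⁻¹.injective e
  refine ⟨p, a1, zs p, Equiv.ext fun z => ?_⟩
  rw [Perm.mul_apply]
  by_cases e1 : z = p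
  · rw [e1, swap_apply_left, (u5p_fix c2 p).2 a1]
  by_cases e2 : z = ζ p
  · rw [e2, swap_apply_right, zz, a1]
  rw [swap_apply_of_ne_of_ne e1 e2, key _ fun k => ?_, zz]
  exact (hF p a1 z ((u5p_fix c2 z).1 k)).elim e1 e2

theorem u5q_10 (h10 : Fintype.card Ω = 10) {γ ζ x : Perm Ω} (h : γ ^ 5 = 1) (hζ : ζ * ζ = 1)
    (hf : ζ.support.card = 10) (c1 : Commute γ ζ) (h8 : x.support.card = 8) (c2 : Commute x ζ)
    (hc : ∀ i : ℕ, Commute x (γ ^ i * x * (γ ^ i)⁻¹)) (hn : γ * x * γ⁻¹ ≠ x) :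
    (x * ζ).IsSwap :=
  let ⟨p, _, a, e⟩ := u5q_key h10 h hζ hf c1 h8 c2 hc hn
  ⟨p, ζ p, a.symm, e⟩

/-- ten points: an involution `ζ` with at least six moved points commuting with `γ ≠ 1` is fixed point free
(and so is `γ`) -/
theorem u5q_fpf (h10 : Fintype.card Ω = 10) {γ ζ : Perm Ω} (h : γ ^ 5 = 1) (g1 : γ ≠ 1)
    (hζ : ζ * ζ = 1) (c1 : Commute γ ζ) (h6 : 6 ≤ ζ.support.card) :
    γ.support.card = 10 ∧ ζ.support.card = 10 := by
  have d := u5p_dvd (by norm_num) h
  have l := Finset.card_le_univ γ.support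
  have l' := Finset.card_le_univ ζ.support
  have s0 : γ.support.card ≠ 0 := by rwa [Ne, Finset.card_eq_zero, support_eq_empty_iff]
  have s10 : γ.support.card = 10 := by
    by_contra c
    have := u5p_card h c1 hζ (by omega)
    omega
  have d1 : 5 ∣ ζ.support.card := u5p_inv (by norm_num) h
    (fun z hz => by
      rw [mem_support] at hz ⊢
      exact fun e => hz ((u5p_fix c1.symm z).1 e))
    fun z _ => mem_support.1 (Finset.eq_univ_of_card _ (s10.trans h10.symm) ▸ Finset.mem_univ z)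
  exact ⟨s10, by omega⟩

end CfsgLib.ANX
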